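import Mathlib

set_option autoImplicit false

namespace Cfsg.Agent.Lib.Helper36.Stb

universe u v

/-- Package ORB: the fixed points of `b ∈ B` on `G / K`, counted through representatives `n i` of the
`(B, K)`-double cosets: `G` is the disjoint union of the `B (n i) K`, `i ∈ I`, and for `x ∈ B` the coset
`(n i) K` is fixed by `x` exactly when `x ∈ S i`. -/
def PkgOrb : Prop := ∀ {G : Type u} [Group G] [Finite G] (B K : Subgroup G) {ι : Type v}
  (I : Finset ι) (n : ι → G) (S : ι → Subgroup G),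
  (∀ g : G, ∃ i ∈ I, ∃ x ∈ B, ∃ k ∈ K, g = x * n i * k) →
  (∀ i ∈ I, ∀ j ∈ I, (∃ x ∈ B, ∃ k ∈ K, n j = x * n i * k) → i = j) →
  (∀ i ∈ I, ∀ x ∈ B, ((n i)⁻¹ * x * n i ∈ K ↔ x ∈ S i)) →
  ∀ b : ↥B, Nat.card ↥(MulAction.fixedBy (G ⧸ K) (b : G)) =
    ∑ i ∈ I, Nat.card ↥(MulAction.fixedBy (↥B ⧸ (S i).subgroupOf B) b)

/-- Package ALT: the alternating sum over the subsets `J` of `R` of the sums of `f` over the `w`
with `J ⊆ asc w` is the value of `f` at the unique `w0` with empty `asc`. -/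
def PkgAlt : Prop := ∀ {ι : Type v} (W : Finset ι) (R : Finset ℕ) (asc : ι → Finset ℕ)
  (f : ι → ℂ) (w0 : ι),
  w0 ∈ W → (∀ w ∈ W, asc w ⊆ R) → (∀ w ∈ W, asc w = ∅ → w = w0) → asc w0 = ∅ →
  ∑ J ∈ R.powerset, (-1 : ℂ) ^ J.card * (∑ w ∈ W.filter (fun w => J ⊆ asc w), f w) = f w0

end Cfsg.Agent.Lib.Helper36.Stb
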